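/-
Helper library (helper22): general facts on the Dade map: it is a linear isometry on virtual characters
supported on `A`, and it coincides with induction when all the subgroups `H a` are trivial.
-/
import Cfsg.Agent.S1500
import Cfsg.Agent.S1501
import Cfsg.Agent.Lib.Helper26.Virtual
import Cfsg.Agent.Lib.Helper15.Ind

set_option autoImplicit false
set_option linter.unusedSectionVars false
set_option linter.unusedVariables false

namespace Cfsg.Agent.Lib.Helper22.PF8

open Subgroup Cfsg
open Cfsg.Agent.Lib Cfsg.Agent.Lib.Helper26 Cfsg.Agent.Lib.Helper15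

variable {G : Type*} [Group G] [Fintype G] {A : Set G} {L : Subgroup G} {H : G → Subgroup G}

theorem dade_add (α β : L → ℂ) :
    dadeIsometry A L H (α + β) = dadeIsometry A L H α + dadeIsometry A L H β := by
  funext g
  unfold dadeIsometry
  by_cases h : ∃ a : ↥L, (a : G) ∈ A ∧ ∃ x : G, ∃ u ∈ H (a : G), x * g * x⁻¹ = (a : G) * u
  · simp only [Pi.add_apply, dif_pos h]
  · simp only [Pi.add_apply, dif_neg h, add_zero]

theorem dade_zsmul (n : ℤ) (α : L → ℂ) :
    dadeIsometry A L H (n • α) = n • dadeIsometry A L H α := by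
  funext g
  unfold dadeIsometry
  by_cases h : ∃ a : ↥L, (a : G) ∈ A ∧ ∃ x : G, ∃ u ∈ H (a : G), x * g * x⁻¹ = (a : G) * u
  · simp only [Pi.smul_apply, dif_pos h]
  · simp only [Pi.smul_apply, dif_neg h, smul_zero]

theorem dade_one (hD : DadeHypothesis A L H) (α : L → ℂ) : dadeIsometry A L H α 1 = 0 := by
  apply Cfsg.Agent.S1500.dade_apply_not
  rintro ⟨a, ha, u, hu, x, hx⟩
  have h1 : a * u = 1 := by rw [← hx]; group
  have h2 : u = a⁻¹ := eq_inv_of_mul_eq_one_right h1
  have h3 : a⁻¹ ∈ H a ⊓ (L ⊓ centralizer ({a} : Set G)) := by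
    exact ⟨h2 ▸ hu, L.inv_mem (hD.subset ha),
      (centralizer ({a} : Set G)).inv_mem (mem_centralizer_singleton_iff.2 rfl)⟩
  rw [hD.inf_eq_bot a ha, mem_bot, inv_eq_one] at h3
  exact hD.one_not_mem (h3 ▸ ha)

theorem dade_isometryOn [Fintype L] (hD : DadeHypothesis A L H) (E : Set (L → ℂ))
    (hgen : ∀ α ∈ E, IsGeneralizedCharacter L α)
    (hsupp : ∀ α ∈ E, ∀ x : L, (x : G) ∉ A → α x = 0) :
    IsLinearIsometryOn E (dadeIsometry A L H) :=
  ⟨fun α _ β _ => dade_add α β, fun α _ n => dade_zsmul n α,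
    fun α hα β hβ => (Cfsg.Agent.S1500.result A L H hD α (gen_classFunction (hgen α hα))
      (hsupp α hα)).1 β (gen_classFunction (hgen β hβ)) (hsupp β hβ),
    fun α hα => Cfsg.Agent.S1501.result A L H hD α (hgen α hα) (hsupp α hα)⟩

/-- When all the `H a` are trivial the Dade map is induction. -/
theorem dade_eq_ind (hD : DadeHypothesis A L H) (hH : ∀ a ∈ A, H a = ⊥) (α : L → ℂ)
    (hα : IsClassFunction L α) (hsupp : ∀ x : L, (x : G) ∉ A → α x = 0) :
    dadeIsometry A L H α = indFun L α := by
  classical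
  funext g
  by_cases hg : ∃ a ∈ A, ∃ u ∈ H a, ∃ x : G, x * g * x⁻¹ = a * u
  · obtain ⟨a, ha, u, hu, x, hx⟩ := hg
    have haL : a ∈ L := hD.subset ha
    have hg' : g = x⁻¹ * (((⟨a, haL⟩ : L) : G) * u) * x := by
      show g = x⁻¹ * (a * u) * x
      rw [← hx]; group
    have h1 : dadeIsometry A L H α g = α ⟨a, haL⟩ := by
      rw [hg']
      exact Cfsg.Agent.S1500.dade_apply hD α hα ⟨a, haL⟩ ha u hu x
    have hu1 : u = 1 := by
      rw [hH a ha, mem_bot] at hu
      exact hu
    have hga : g = x⁻¹ * a * x := by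
      rw [← mul_one a, ← hu1, ← hx]; group
    have hterm : ∀ z : G, extendByZero L α (z⁻¹ * a * z) = if z ∈ L then α ⟨a, haL⟩ else 0 := by
      intro z
      split_ifs with hz
      · have hm : z⁻¹ * a * z ∈ L := mul_mem (mul_mem (inv_mem hz) haL) hz
        rw [extendByZero_mem L α hm]
        have := hα ⟨a, haL⟩ (⟨z, hz⟩ : L)⁻¹
        rw [← this]
        congr 1
        apply Subtype.ext
        simp
      · by_cases hm : z⁻¹ * a * z ∈ L
        · rw [extendByZero_mem L α hm]
          apply hsupp
          intro hA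
          apply hz
          have hA' : z⁻¹ * a * z⁻¹⁻¹ ∈ A := by rw [inv_inv]; exact hA
          obtain ⟨l, hl, hla⟩ := hD.fusion a ha z⁻¹ hA'
          have hc : z * l ∈ centralizer ({a} : Set G) := by
            rw [mem_centralizer_singleton_iff]
            calc z * l * a = z * (l * a * l⁻¹) * l := by group
              _ = z * (z⁻¹ * a * z⁻¹⁻¹) * l := by rw [hla]
              _ = a * (z * l) := by group
          rw [← hD.sup_eq a ha, hH a ha, bot_sup_eq] at hc
          have := L.mul_mem hc.1 (L.inv_mem hl)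
          simpa using this
        · exact extendByZero_not_mem L α hm
    rw [h1]
    unfold indFun
    have h2 : ∑ y : G, extendByZero L α (y⁻¹ * g * y)
        = ∑ z : G, extendByZero L α (z⁻¹ * a * z) := by
      rw [← Equiv.sum_comp (Equiv.mulLeft x) (fun z => extendByZero L α (z⁻¹ * a * z))]
      apply Finset.sum_congr rfl
      intro y _
      congr 1
      rw [hga]
      simp only [Equiv.coe_mulLeft]
      group
    rw [h2, Finset.sum_congr rfl (fun z _ => hterm z), Finset.sum_ite, Finset.sum_const_zero,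
      add_zero, Finset.sum_const, nsmul_eq_mul]
    have hcard : ((Finset.univ.filter (fun z : G => z ∈ L)).card : ℂ) = (Nat.card L : ℂ) := by
      congr 1
      rw [Nat.card_eq_fintype_card, Fintype.card_subtype]
    rw [hcard, ← mul_assoc, inv_mul_cancel₀, one_mul]
    exact_mod_cast Nat.card_pos.ne'
  · rw [Cfsg.Agent.S1500.dade_apply_not α g hg]
    unfold indFun
    rw [Finset.sum_eq_zero, mul_zero]
    intro y _
    by_cases hm : y⁻¹ * g * y ∈ L
    · rw [extendByZero_mem L α hm]
      apply hsupp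
      intro hA
      exact hg ⟨_, hA, 1, one_mem _, y⁻¹, by group⟩
    · exact extendByZero_not_mem L α hm

end Cfsg.Agent.Lib.Helper22.PF8
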